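import Cfsg.Agent.LG.Defs
import Cfsg.Agent.LG.FP
import Cfsg.Agent.LS.Pure

/-! Project LG (notes/LG.md): the group `16^(1+4)` over `F[θ] / (θ² + θ + B)`. -/

set_option autoImplicit false
set_option linter.unusedSectionVars false
set_option linter.unusedVariables false

namespace Cfsg.Agent.LG

open Subgroup H29
open scoped commutatorElement

variable {G : Type*} [Group G] [Finite G] {B : F} {X : F → F × F → G} {Y : F × F → G}

namespace PU

open LS (pu_two pu_ml0 pu_ml0' pu_ml1 pu_ml1' pu_mlc puL pu_ideal pu_root)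

/-- coordinates on `U / W` -/
abbrev U4 : Type := (F × F) × (F × F) × (F × F) × (F × F)

/-- the normal form -/
def nf (X : F → F × F → G) (Y : F × F → G) (u : U4) (η : F × F) : G :=
  X .o u.1 * (X .i u.2.1 * (X .w u.2.2.1 * (X .v u.2.2.2 * Y η)))

/-- the cocycle -/
def kp (B : F) (u u' : U4) : F × F :=
  ml B u.2.1 u'.1 + ml B u.2.2.1 u'.1 + ml B u.2.2.2 u'.1 + ml B u.2.2.1 u'.2.1 + ml B u.2.2.2 u'.2.1 +
    ml B u.2.2.2 u'.2.2.1

/-- the commutator form -/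
def bb (B : F) (u u' : U4) : F × F := kp B u u' + kp B u' u

/-- scalar multiplication -/
def sc (B : F) (l : F × F) (u : U4) : U4 := (ml B l u.1, ml B l u.2.1, ml B l u.2.2.1, ml B l u.2.2.2)

theorem two4 (u : U4) : u + u = 0 :=
  Prod.ext (pu_two _) (Prod.ext (pu_two _) (Prod.ext (pu_two _) (pu_two _)))

theorem bb_sc (B : F) (l : F × F) (u u' : U4) : bb B (sc B l u) u' = ml B l (bb B u u') := by
  simp only [bb, kp, sc, LS.ml, Prod.fst_add, Prod.snd_add, Prod.mk_add_mk]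
  ext <;> ring

theorem bb_mu (B : F) (m : F × F) (u : U4) : bb B u (0, m, 0, 0) = ml B (bb B u (0, (1, 0), 0, 0)) m := by
  simp only [bb, kp, LS.ml, Prod.fst_add, Prod.snd_add, Prod.mk_add_mk, Prod.fst_zero, Prod.snd_zero]
  ext <;> ring

theorem bb_e (B : F) (m : F × F) : bb B ((1, 0), 0, 0, 0) (0, m, 0, 0) = m := by
  simp only [bb, kp, pu_ml0, pu_ml0', pu_ml1', add_zero, zero_add]

theorem bb_nd {u : U4} (h : ∀ u', bb B u u' = 0) : u = 0 := by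
  have h1 := h ((1, 0), 0, 0, 0)
  have h2 := h (0, (1, 0), 0, 0)
  have h3 := h (0, 0, (1, 0), 0)
  have h4 := h (0, 0, 0, (1, 0))
  simp only [bb, kp, pu_ml0, pu_ml0', pu_ml1', pu_ml1, add_zero, zero_add] at h1 h2 h3 h4
  have k : ∀ a b c d : F, b + c + d = 0 → c + d + a = 0 → d + (a + b) = 0 → a + b + c = 0 →
      a = 0 ∧ b = 0 ∧ c = 0 ∧ d = 0 := by decide
  obtain ⟨a1, a2, a3, a4⟩ := k _ _ _ _ (congrArg Prod.fst h1) (congrArg Prod.fst h2) (congrArg Prod.fst h3)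
    (congrArg Prod.fst h4)
  obtain ⟨b1, b2, b3, b4⟩ := k _ _ _ _ (congrArg Prod.snd h1) (congrArg Prod.snd h2) (congrArg Prod.snd h3)
    (congrArg Prod.snd h4)
  exact Prod.ext (Prod.ext a1 b1) (Prod.ext (Prod.ext a2 b2) (Prod.ext (Prod.ext a3 b3) (Prod.ext a4 b4)))

theorem xz (h : Co B X Y) (c : F) : X c 0 = 1 := by simpa using h.x c 0 0

theorem yz (h : Co B X Y) : Y 0 = 1 := by simpa using h.y 0 0

theorem Y_inj (h : Co B X Y) {γ γ' : F × F} (e : Y γ = Y γ') : γ = γ' := by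
  have := h.inj (γ + γ') (by rw [h.y, e, ← h.y, pu_two, yz h])
  rw [← add_zero γ, ← pu_two γ', ← add_assoc, this, zero_add]

theorem nf_Y (h : Co B X Y) (γ : F × F) : nf X Y 0 γ = Y γ := by
  simp only [nf, Prod.fst_zero, Prod.snd_zero, xz h, one_mul]

theorem nf_mul (h : Co B X Y) (u u' : U4) (η η' : F × F) :
    nf X Y u η * nf X Y u' η' = nf X Y (u + u') (η + η' + kp B u u') := by
  have r1 : ∀ c c', c ≠ c' → ∀ α β g, X c α * (X c' β * g) = X c' β * (X c α * (Y (ml B α β) * g)) :=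
    fun c c' n α β g => by rw [← mul_assoc, h.cm c c' n]; group
  have r2 : ∀ c γ α g, Y γ * (X c α * g) = X c α * (Y γ * g) := fun c γ α g => by
    rw [← mul_assoc, (h.cy c α γ).eq, mul_assoc]
  have r3 : ∀ c α β g, X c α * (X c β * g) = X c (α + β) * g := fun c α β g => by rw [h.x, mul_assoc]
  have r4 : ∀ γ δ, Y γ * Y δ = Y (γ + δ) := fun γ δ => (h.y γ δ).symm
  simp only [nf, mul_assoc, r1 .i .o (by decide), r1 .w .o (by decide), r1 .v .o (by decide), r1 .w .i (by decide),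
    r1 .v .i (by decide), r1 .v .w (by decide), r2, r3, r4, kp, Prod.fst_add, Prod.snd_add]
  congr 5
  abel

theorem nf_mulY (h : Co B X Y) (u : U4) (η δ : F × F) : nf X Y u η * Y δ = nf X Y u (η + δ) := by
  simp only [nf, h.y, mul_assoc]

theorem nf_sq (h : Co B X Y) (u : U4) (η : F × F) : nf X Y u η * nf X Y u η = Y (kp B u u) := by
  rw [nf_mul h, two4, pu_two, zero_add, nf_Y h]

theorem nf_inv (h : Co B X Y) (u : U4) (η : F × F) : (nf X Y u η)⁻¹ = nf X Y u (η + kp B u u) := by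
  refine inv_eq_of_mul_eq_one_right ?_
  rw [← nf_mulY h, ← mul_assoc, nf_sq h, ← h.y, pu_two, yz h]

theorem nf_comm (h : Co B X Y) (u u' : U4) (η η' : F × F) :
    nf X Y u η * nf X Y u' η' = nf X Y u' η' * nf X Y u η * Y (bb B u u') := by
  rw [nf_mul h, nf_mul h, nf_mulY h, add_comm u, add_comm η, bb, add_comm (kp B u u'), ← add_assoc,
    add_assoc (η' + η), pu_two, add_zero]

theorem nf_cen (h : Co B X Y) {u : U4} {η : F × F} (c : ∀ u', Commute (nf X Y u η) (nf X Y u' 0)) : u = 0 :=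
  bb_nd (B := B) fun u' => by
    have := (c u').eq
    rw [nf_comm h, mul_eq_left] at this
    exact h.inj _ this

theorem nf_inj (h : Co B X Y) {u u' : U4} {η η' : F × F} (e : nf X Y u η = nf X Y u' η') : u = u' ∧ η = η' := by
  have h1 := mul_inv_eq_one.2 e
  rw [nf_inv h, nf_mul h] at h1
  have h2 : u + u' = 0 := nf_cen h fun v => by rw [h1]; exact Commute.one_left _
  obtain rfl : u = u' := by rw [← add_zero u, ← two4 u', ← add_assoc, h2, zero_add]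
  refine ⟨rfl, Y_inj h ?_⟩
  simpa only [nf, mul_left_cancel_iff] using e

theorem mem_U (h : Co B X Y) {x : G} : x ∈ CoU X Y ↔ ∃ u η, x = nf X Y u η := by
  constructor
  · intro hx
    induction hx using closure_induction with
    | mem x hx =>
      rcases hx with ⟨c, α, rfl⟩ | ⟨γ, rfl⟩
      · cases c
        · exact ⟨(α, 0, 0, 0), 0, by simp only [nf, xz h, yz h, mul_one]⟩
        · exact ⟨(0, α, 0, 0), 0, by simp only [nf, xz h, yz h, mul_one, one_mul]⟩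
        · exact ⟨(0, 0, α, 0), 0, by simp only [nf, xz h, yz h, mul_one, one_mul]⟩
        · exact ⟨(0, 0, 0, α), 0, by simp only [nf, xz h, yz h, mul_one, one_mul]⟩
      · exact ⟨0, γ, (nf_Y h γ).symm⟩
    | one => exact ⟨0, 0, by rw [nf_Y h, yz h]⟩
    | mul x y _ _ hx hy =>
      obtain ⟨u, η, rfl⟩ := hx
      obtain ⟨u', η', rfl⟩ := hy
      exact ⟨_, _, nf_mul h ..⟩
    | inv x _ hx =>
      obtain ⟨u, η, rfl⟩ := hx
      exact ⟨_, _, nf_inv h ..⟩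
  · rintro ⟨u, η, rfl⟩
    have k : ∀ c α, X c α ∈ CoU X Y := fun c α => subset_closure (Or.inl ⟨c, α, rfl⟩)
    exact mul_mem (k _ _) (mul_mem (k _ _) (mul_mem (k _ _) (mul_mem (k _ _) (subset_closure (Or.inr ⟨η, rfl⟩)))))

end PU

theorem Co.mem_W (h : Co B X Y) {x : G} : x ∈ CoW Y ↔ ∃ γ, x = Y γ := by
  constructor
  · intro hx
    induction hx using closure_induction with
    | mem x hx => obtain ⟨γ, rfl⟩ := hx; exact ⟨γ, rfl⟩
    | one => exact ⟨0, (PU.yz h).symm⟩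
    | mul x y _ _ hx hy =>
      obtain ⟨γ, rfl⟩ := hx
      obtain ⟨γ', rfl⟩ := hy
      exact ⟨_, (h.y ..).symm⟩
    | inv x _ hx =>
      obtain ⟨γ, rfl⟩ := hx
      exact ⟨γ, inv_eq_of_mul_eq_one_right (by rw [← h.y, LS.pu_two, PU.yz h])⟩
  · rintro ⟨γ, rfl⟩
    exact subset_closure ⟨γ, rfl⟩

theorem Co.uw (h : Co B X Y) : UW (CoU X Y) (CoW Y) := by
  refine ⟨closure_mono Set.subset_union_right, ?_, ?_, ?_, ?_, ?_⟩
  · rw [← Nat.card_congr (Equiv.ofBijective (fun p : PU.U4 × (F × F) =>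
      (⟨PU.nf X Y p.1 p.2, (PU.mem_U h).2 ⟨_, _, rfl⟩⟩ : CoU X Y)) ⟨fun p q e => by
        obtain ⟨h1, h2⟩ := PU.nf_inj h (congrArg Subtype.val e)
        exact Prod.ext h1 h2, fun x => by
        obtain ⟨u, η, e⟩ := (PU.mem_U h).1 x.2
        exact ⟨(u, η), Subtype.ext e.symm⟩⟩)]
    simp only [Nat.card_prod, Nat.card_eq_fintype_card (α := F), F4.card_eq]
    norm_num
  · rw [← Nat.card_congr (Equiv.ofBijective (fun p : F × F =>
      (⟨Y p, h.mem_W.2 ⟨_, rfl⟩⟩ : CoW Y)) ⟨fun p q e => PU.Y_inj h (congrArg Subtype.val e), fun x => by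
        obtain ⟨γ, e⟩ := h.mem_W.1 x.2
        exact ⟨γ, Subtype.ext e.symm⟩⟩)]
    simp only [Nat.card_eq_fintype_card, Fintype.card_prod, F4.card_eq]
  · intro w hw x hx
    obtain ⟨γ, rfl⟩ := h.mem_W.1 hw
    obtain ⟨u, η, rfl⟩ := (PU.mem_U h).1 hx
    refine (h.cy _ _ _).mul_right ((h.cy _ _ _).mul_right ((h.cy _ _ _).mul_right ((h.cy _ _ _).mul_right ?_)))
    rw [Commute, SemiconjBy, ← h.y, ← h.y, add_comm]
  · intro w hw
    obtain ⟨γ, rfl⟩ := h.mem_W.1 hw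
    rw [← h.y, LS.pu_two, PU.yz h]
  · intro x hx
    obtain ⟨u, η, rfl⟩ := (PU.mem_U h).1 hx
    exact h.mem_W.2 ⟨_, PU.nf_sq h ..⟩

namespace PU

open LS (pu_two pu_ml0 pu_ml0' pu_ml1 pu_ml1' pu_mlc puL pu_ideal pu_root)

/-- what an automorphism does to the coordinates -/
structure PuA (B : F) (Γ : F × F → F × F) : Prop where
  inj : Function.Injective Γ
  add : ∀ a b, Γ (a + b) = Γ a + Γ b
  ex : ∀ l, ∃ c, ∀ ν, Γ (ml B l ν) = ml B c (Γ ν)

theorem PuA.zero {Γ : F × F → F × F} (a : PuA B Γ) : Γ 0 = 0 := by simpa using a.add 0 0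

theorem exists_act (h : Co B X Y) {n : G} (hn : n ∈ normalizer (CoU X Y : Set G)) :
    ∃ Γ, (∀ γ, n * Y γ * n⁻¹ = Y (Γ γ)) ∧ PuA B Γ := by
  have cj : ∀ x ∈ CoU X Y, n * x * n⁻¹ ∈ CoU X Y := fun x hx => (mem_normalizer_iff.1 hn x).1 hx
  have cj' : ∀ x ∈ CoU X Y, n⁻¹ * x * n ∈ CoU X Y := fun x hx =>
    (mem_normalizer_iff''.1 hn x).1 hx
  have hY : ∀ γ, ∃ γ', n * Y γ * n⁻¹ = Y γ' := fun γ => by
    have m := h.mem_W.2 ⟨γ, rfl⟩
    obtain ⟨u, η, e⟩ := (mem_U h).1 (cj _ (h.uw.le m))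
    have k : u = 0 := nf_cen h (η := η) fun u' => by
      have := (h.uw.cen _ m _ (cj' _ ((mem_U h).2 ⟨u', 0, rfl⟩))).eq
      rw [← e]
      calc n * Y γ * n⁻¹ * nf X Y u' 0 = n * (Y γ * (n⁻¹ * nf X Y u' 0 * n)) * n⁻¹ := by group
        _ = _ := by rw [this]; group
    exact ⟨η, by rw [e, k, nf_Y h]⟩
  choose Γ hΓ using hY
  have hP : ∀ p : U4, ∃ (q : U4) (c : F × F), n * nf X Y p 0 * n⁻¹ = nf X Y q c := fun p =>
    (mem_U h).1 (cj _ ((mem_U h).2 ⟨p, 0, rfl⟩))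
  choose π c hπ using hP
  have inj : Function.Injective Γ := fun a b e => Y_inj h (by
    have := (hΓ a).trans ((congrArg Y e).trans (hΓ b).symm)
    simpa using this)
  have sur : Function.Surjective π := fun q => by
    obtain ⟨u, η, e⟩ := (mem_U h).1 (cj' _ ((mem_U h).2 ⟨q, 0, rfl⟩))
    have e1 : nf X Y q 0 = n * nf X Y u 0 * n⁻¹ * (n * Y η * n⁻¹) := by
      rw [conj_mul, nf_mulY h, zero_add, ← e]; group
    rw [hπ u, hΓ, nf_mulY h] at e1
    exact ⟨u, (nf_inj h e1).1.symm⟩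
  have hb : ∀ p q, Γ (bb B p q) = bb B (π p) (π q) := fun p q => Y_inj h (by
    have e := congrArg (fun x => n * x * n⁻¹) (nf_comm h p q 0 0)
    simp only [← conj_mul, hπ, hΓ] at e
    rw [nf_comm h, mul_left_cancel_iff] at e
    exact e.symm)
  refine ⟨Γ, hΓ, inj, fun a b => Y_inj h ?_, fun l => ?_⟩
  · rw [← hΓ, h.y, h.y, ← hΓ, ← hΓ, conj_mul]
  · obtain ⟨u0, e0⟩ := sur ((1, 0), 0, 0, 0)
    refine ⟨bb B (π (sc B l u0)) (0, (1, 0), 0, 0), fun ν => ?_⟩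
    obtain ⟨u', e'⟩ := sur (0, Γ ν, 0, 0)
    have e1 : bb B u0 u' = ν := inj (by rw [hb, e0, e', bb_e])
    rw [← bb_mu, ← e', ← hb, bb_sc, e1]

theorem PuA.semi {Γ : F × F → F × F} (a : PuA B Γ) (hB : ∀ r, r * r + r ≠ B) (α β : F × F) :
    ml B (Γ (ml B α β)) (Γ (1, 0)) = ml B (Γ α) (Γ β) := by
  obtain ⟨c, e⟩ := a.ex α
  have e1 := e (1, 0)
  rw [pu_ml1'] at e1
  rw [e, e1]
  simp only [LS.ml]
  ext <;> ring

theorem PuA.split {Γ : F × F → F × F} (a : PuA B Γ) {r : F} (hr : r * r + r = B) :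
    (∀ γ, puL r γ = 0 ↔ puL r (Γ γ) = 0) ∨ ∀ γ, puL r γ = 0 ↔ puL (r + 1) (Γ γ) = 0 := by
  obtain ⟨c, e⟩ := a.ex (r, 1)
  have hs := Finite.surjective_of_injective a.inj
  have k1 : ∀ r : F, puL r (r, 1) = 0 ∧ puL r 0 = 0 ∧ puL (r + 1) (r, 1) ≠ 0 ∧ puL r (1, 0) ≠ 0 := by decide
  have i : ∀ (r : F) (β : F × F), puL r β = 0 → puL (r + 1) β = 0 → β = 0 := by decide +kernel
  have key : ∀ γ, puL r γ = 0 ↔
      (puL r c = 0 → puL r (Γ γ) = 0) ∧ (puL (r + 1) c = 0 → puL (r + 1) (Γ γ) = 0) := by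
    intro γ
    have h1 := pu_ideal hr c 0 (Γ γ)
    have h2 := pu_ideal hr (r, 1) 0 γ
    simp only [(k1 r).1, (k1 r).2.1, (k1 (r + 1)).2.1, (k1 r).2.2.1, and_self, forall_true_left,
      IsEmpty.forall_iff, and_true, pu_ml0', add_zero] at h1 h2
    rw [← h1, ← h2]
    constructor
    · rintro ⟨q, rfl⟩
      exact ⟨(0, Γ q.2), e _⟩
    · rintro ⟨q, e1⟩
      obtain ⟨ν, e2⟩ := hs q.2
      exact ⟨(0, ν), a.inj (by rw [e1, ← e2, e])⟩
  by_cases z1 : puL r c = 0 <;> by_cases z2 : puL (r + 1) c = 0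
  · obtain ⟨h1, h2⟩ := (key (r, 1)).1 (k1 r).1
    have := a.inj ((i r _ (h1 z1) (h2 z2)).trans a.zero.symm)
    exact absurd (congrArg Prod.snd this) one_ne_zero
  · exact Or.inl fun γ => (key γ).trans ⟨fun h => h.1 z1, fun h => ⟨fun _ => h, fun h' => (z2 h').elim⟩⟩
  · exact Or.inr fun γ => (key γ).trans ⟨fun h => h.2 z2, fun h => ⟨fun h' => (z1 h').elim, fun _ => h⟩⟩
  · exact absurd ((key (1, 0)).2 ⟨fun h => (z1 h).elim, fun h => (z2 h).elim⟩) (k1 r).2.2.2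

end PU

theorem Co.nW (h : Co B X Y) : normalizer (CoU X Y : Set G) ≤ normalizer (CoW Y : Set G) := fun n hn => by
  obtain ⟨Γ, e, -⟩ := PU.exists_act h hn
  refine mem_normalizer_fintype fun w hw => ?_
  obtain ⟨γ, rfl⟩ := h.mem_W.1 hw
  exact h.mem_W.2 ⟨_, e γ⟩

open LS (puL pu_root pu_cyc pu_ring) in
theorem Co.cyc (h : Co B X Y) {t : G} (ht : ∀ γ, t * Y γ * t⁻¹ = Y (γ.1 + γ.2, γ.2))
    (tn : t ∈ normalizer (CoU X Y : Set G)) (S : Subgroup G) (hS : IsPGroup 2 S)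
    (le : S ≤ normalizer (CoU X Y : Set G)) :
    ∃ S₀ : Subgroup G, S₀ ≤ S ∧ ∃ _ : (S₀.subgroupOf S).Normal, IsCyclic (S ⧸ S₀.subgroupOf S) ∧
      ∀ m ∈ normalizer (CoU X Y : Set G), m * t * m⁻¹ ∉ S₀ := by
  classical
  choose Γ hΓ hA using fun n : normalizer (CoU X Y : Set G) => PU.exists_act h n.2
  have hm : ∀ x y γ, Γ (x * y) γ = Γ x (Γ y γ) := fun x y γ => PU.Y_inj h (by
    rw [← hΓ, ← hΓ, ← hΓ, coe_mul]; group)
  have htΓ : ∀ γ, Γ ⟨t, tn⟩ γ = (γ.1 + γ.2, γ.2) := fun γ => PU.Y_inj h (by rw [← hΓ, ht])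
  by_cases hB : ∃ r, r * r + r = B
  · obtain ⟨r, hr⟩ := hB
    have rr : r + 1 + 1 = r := by rw [add_assoc, LS.SA.two, add_zero]
    have k1 : ∀ r : F, puL r (r, 1) = 0 ∧ puL (r + 1) (r, 1) ≠ 0 ∧ puL r (r + 1, 1) ≠ 0 := by decide
    have ex : ∀ n, ¬ ((∀ γ, puL r γ = 0 ↔ puL r (Γ n γ) = 0) ∧
        ∀ γ, puL r γ = 0 ↔ puL (r + 1) (Γ n γ) = 0) := by
      rintro n ⟨h1, h2⟩
      obtain ⟨γ, e⟩ := Finite.surjective_of_injective (hA n).inj (r, 1)
      exact (k1 r).2.1 (e ▸ (h2 γ).1 ((h1 γ).2 (e.symm ▸ (k1 r).1)))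
    have p1 : ∀ n, (∀ γ, puL r γ = 0 ↔ puL r (Γ n γ) = 0) →
        ∀ γ, puL (r + 1) γ = 0 ↔ puL (r + 1) (Γ n γ) = 0 := fun n h1 =>
      ((hA n).split (pu_root hr)).resolve_right fun h2 =>
        (k1 r).2.1 ((h2 _).2 (rr.symm ▸ (h1 _).1 (k1 r).1))
    have p2 : ∀ n, (∀ γ, puL r γ = 0 ↔ puL (r + 1) (Γ n γ) = 0) →
        ∀ γ, puL (r + 1) γ = 0 ↔ puL r (Γ n γ) = 0 := fun n h1 => by
      have := ((hA n).split (pu_root hr)).resolve_left fun h2 =>
        (k1 r).2.1 ((h2 _).2 ((h1 _).1 (k1 r).1))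
      rwa [rr] at this
    refine pu_cyc (C := ℤˣ) (MonoidHom.mk'
      (fun n => if ∀ γ, puL r γ = 0 ↔ puL r (Γ n γ) = 0 then 1 else -1) fun x y => ?_) tn ?_ le
    · rcases (hA x).split hr with hx | hx <;> rcases (hA y).split hr with hy | hy
      · rw [if_pos hx, if_pos hy, if_pos fun γ => by rw [hm, ← hx, ← hy], one_mul]
      · rw [if_pos hx, if_neg fun h' => ex y ⟨h', hy⟩, if_neg fun h' => ex _ ⟨h', fun γ => by
          rw [hm, ← p1 x hx, ← hy]⟩, one_mul]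
      · rw [if_pos hy, if_neg fun h' => ex x ⟨h', hx⟩, if_neg fun h' => ex _ ⟨h', fun γ => by
          rw [hm, ← hx, ← hy]⟩, mul_one]
      · rw [if_neg fun h' => ex x ⟨h', hx⟩, if_neg fun h' => ex y ⟨h', hy⟩, if_pos fun γ => by
          rw [hm, ← p2 x hx, ← hy], neg_mul_neg, one_mul]
    · rw [MonoidHom.mk'_apply, if_neg fun h' => (k1 r).2.2 (by
        have := (h' (r, 1)).1 (k1 r).1
        rwa [htΓ] at this)]
      decide
  · have hB' : ∀ r, r * r + r ≠ B := fun r e => hB ⟨r, e⟩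
    have : Fact (∀ r : F, r ^ 2 ≠ B + 1 * r) := ⟨fun r e => hB' r (by
      rw [← sq, e, one_mul, add_assoc, LS.SA.two, add_zero])⟩
    let e := QuadraticAlgebra.equivProd B (1 : F)
    have : Finite (QuadraticAlgebra F B 1) := Finite.of_equiv _ e.symm
    have := isCyclic_ringAut (QuadraticAlgebra F B 1)
    have em : ∀ a b, e (a * b) = ml B (e a) (e b) := fun a b => by
      refine Prod.ext ?_ ?_
      · change (a * b).re = a.re * b.re + B * (a.im * b.im)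
        rw [QuadraticAlgebra.re_mul, mul_assoc]
      · change (a * b).im = a.re * b.im + a.im * b.re + a.im * b.im
        rw [QuadraticAlgebra.im_mul, one_mul]
    have ea : ∀ a b, e (a + b) = e a + e b := fun a b => rfl
    obtain ⟨f, hf⟩ := pu_ring (fun n z => e.symm (Γ n (e z)))
      (fun x y z => by rw [hm, e.apply_symm_apply])
      (fun n => e.symm.injective.comp ((hA n).inj.comp e.injective))
      (fun n a b => e.injective (by simp only [ea, e.apply_symm_apply, (hA n).add]))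
      (fun n a b => e.injective (by
        simp only [em, e.apply_symm_apply]
        exact (hA n).semi hB' _ _))
    refine pu_cyc f tn (fun h1 => ?_) le
    have h2 := hf ⟨t, tn⟩ (e.symm (0, 1))
    have h3 : e.symm (Γ ⟨t, tn⟩ (e 1)) = 1 := by
      rw [htΓ, Equiv.symm_apply_eq]
      exact Prod.ext (add_zero _) rfl
    rw [h1, h3, div_one, e.apply_symm_apply, htΓ] at h2
    exact absurd (e.symm.injective h2) (by decide)

theorem UW.cj {U W : Subgroup G} (h : UW U W) (m : G) :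
    UW (U.map (MulAut.conj m).toMonoidHom) (W.map (MulAut.conj m).toMonoidHom) := by
  refine ⟨map_mono h.le, ?_, ?_, ?_, ?_, ?_⟩
  · rw [card_map_of_injective (f := (MulAut.conj m).toMonoidHom) (MulAut.conj m).injective, h.cU]
  · rw [card_map_of_injective (f := (MulAut.conj m).toMonoidHom) (MulAut.conj m).injective, h.cW]
  · rintro _ ⟨w, hw, rfl⟩ _ ⟨x, hx, rfl⟩
    exact (h.cen w hw x hx).map _
  · rintro _ ⟨w, hw, rfl⟩
    rw [← map_mul, h.el w hw, map_one]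
  · rintro _ ⟨x, hx, rfl⟩
    exact ⟨x * x, h.sq x hx, map_mul _ _ _⟩

namespace PU

variable {U W : Subgroup G} {t : G}

theorem zc (h : UW U W) : ∀ y ∈ U, ∀ c ∈ W, y * c * y⁻¹ = c := fun y hy c hc => by
  rw [← (h.cen c hc y hy).eq, mul_inv_cancel_right]

/-- the elements centralised by `t` modulo `W` -/
def U1 (h : UW U W) (t : G) : Subgroup G := FPX.CM U W (zc h) t

theorem mem_U1 (h : UW U W) {u : G} : u ∈ U1 h t ↔ u ∈ U ∧ ⁅t, u⁆ ∈ W :=
  and_congr_right fun _ => by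
    rw [← W.inv_mem_iff, commutatorElement_def]
    exact iff_of_eq (congrArg (· ∈ W) (by group))

theorem cm_U (nU : t ∈ normalizer (U : Set G)) {u : G} (hu : u ∈ U) : ⁅t, u⁆ ∈ U :=
  U.mul_mem ((mem_normalizer_iff.1 nU u).1 hu) (U.inv_mem hu)

theorem cm_inv (t2 : t * t = 1) (u : G) : t * ⁅t, u⁆ * t⁻¹ = ⁅t, u⁆⁻¹ := by
  rw [commutatorElement_def]
  calc _ = (t * t) * u * (t * t)⁻¹ * (t * u⁻¹ * t⁻¹) := by group
    _ = _ := by rw [t2]; group

theorem cm_U1 (h : UW U W) (t2 : t * t = 1) (nU : t ∈ normalizer (U : Set G)) {u : G} (hu : u ∈ U) :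
    ⁅t, u⁆ ∈ U1 h t := (mem_U1 h).2 ⟨cm_U nU hu, by
  rw [commutatorElement_def t, cm_inv t2]
  exact h.sq _ (U.inv_mem (cm_U nU hu))⟩

theorem cm_cen (h : UW U W) (t2 : t * t = 1) {u : G} (hu : ⁅t, u⁆ ∈ W) : ⁅t, u⁆ ∈ W ⊓ centralizer {t} :=
  ⟨hu, mem_centralizer_singleton_iff.2 (by
    have := cm_inv t2 u
    rw [inv_eq_of_mul_eq_one_right (h.el _ hu), mul_inv_eq_iff_eq_mul] at this
    exact this.symm)⟩

theorem cm_quo (b b' : G) : ⁅t, b⁻¹ * b'⁆ = b⁻¹ * (⁅t, b⁆⁻¹ * ⁅t, b'⁆) * b⁻¹⁻¹ := by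
  simp only [commutatorElement_def]; group

/-- the fibres of `u ↦ [t, u]` -/
theorem fib {A C : Subgroup G} (hC : ∀ a ∈ A, ⁅t, a⁆ ∈ C) :
    Nat.card A ≤ Nat.card ↥(A ⊓ centralizer {t}) * Nat.card C := by
  have k := FPX.idx (A := A) (B := C) (X := A ⊓ centralizer {t}) (R := ⊥) inf_le_left bot_le (fun b => ⁅t, b⁆) hC
    fun b hb b' hb' e => ⟨A.mul_mem (A.inv_mem hb) hb', mem_centralizer_singleton_iff.2 (by
      have := cm_quo (t := t) b b'
      rw [mem_bot.1 e, mul_one, mul_inv_cancel, commutatorElement_eq_one_iff_mul_comm] at this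
      exact this.symm)⟩
  rwa [card_bot, mul_one] at k

theorem big (h : UW U W) {C : Subgroup G} (hW : W ≤ C) (hC : ∀ a ∈ U, ⁅t, a⁆ ∈ C) :
    2 ^ 24 ≤ Nat.card (U1 h t) * Nat.card C := by
  have k := FPX.idx (A := U) (B := C) (X := U1 h t) (R := W) (fun u hu => hu.1) hW (fun b => ⁅t, b⁆) hC
    fun b hb b' hb' e => (mem_U1 h).2 ⟨U.mul_mem (U.inv_mem hb) hb', by
      rw [cm_quo, zc h _ (U.inv_mem hb) _ e]; exact e⟩
  rw [h.cU, h.cW] at k
  exact le_trans (by norm_num) k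

theorem U1_le (h : UW U W) (t2 : t * t = 1) :
    Nat.card (U1 h t) ≤ Nat.card ↥(U ⊓ centralizer {t}) * Nat.card ↥(W ⊓ centralizer {t}) :=
  (fib (A := U1 h t) fun a ha => cm_cen h t2 ((mem_U1 h).1 ha).2).trans
    (Nat.mul_le_mul_right _ (card_le_of_le (inf_le_inf_right _ fun u hu => hu.1)))

end PU

open PU

/-- an involution acting on `U` -/
theorem UW.cnt {U W : Subgroup G} (h : UW U W) {t : G} (t2 : t * t = 1)
    (nU : t ∈ normalizer (U : Set G)) (nW : t ∈ normalizer (W : Set G)) :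
    4 ≤ Nat.card ↥(W ⊓ centralizer {t}) ∧
      4096 ≤ Nat.card ↥(U ⊓ centralizer {t}) * Nat.card ↥(W ⊓ centralizer {t}) := by
  constructor
  · have k := fib (A := W) fun a ha => cm_cen h t2 (cm_U nW ha)
    rw [h.cW] at k
    by_contra hc
    have := Nat.mul_le_mul (Nat.le_of_lt_succ (not_le.1 hc)) (Nat.le_of_lt_succ (not_le.1 hc))
    omega
  · have k := big h (C := U1 h t) (fun w hw => (mem_U1 h).2 ⟨h.le hw, cm_U nW hw⟩) fun a ha => cm_U1 h t2 nU ha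
    refine le_trans ?_ (U1_le h t2)
    by_contra hc
    have := Nat.mul_le_mul (Nat.le_of_lt_succ (not_le.1 hc)) (Nat.le_of_lt_succ (not_le.1 hc))
    omega

theorem UW.cnt2 {U W : Subgroup G} (h : UW U W) {t : G} (t2 : t * t = 1)
    (nU : t ∈ normalizer (U : Set G)) (cW : ∀ w ∈ W, Commute w t) :
    ∃ Y₀ : Subgroup G, W ≤ Y₀ ∧ Y₀ ≤ U ⊓ centralizer {t} ∧
      (∀ y ∈ Y₀, ∀ x ∈ U ⊓ centralizer {t}, Commute y x) ∧
      65536 ≤ Nat.card ↥(U ⊓ centralizer {t}) * Nat.card Y₀ := by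
  have ab : ∀ a ∈ U, ∀ b ∈ U, a * b * a⁻¹ * b⁻¹ ∈ W := fun a ha b hb => by
    have e : a * b * a⁻¹ * b⁻¹ = (a * b) * (a * b) * (b⁻¹ * (a * a)⁻¹ * b⁻¹⁻¹) * (b * b)⁻¹ := by group
    rw [e, zc h _ (U.inv_mem hb) _ (W.inv_mem (h.sq a ha))]
    exact W.mul_mem (W.mul_mem (h.sq _ (U.mul_mem ha hb)) (W.inv_mem (h.sq a ha))) (W.inv_mem (h.sq b hb))
  have m0 : ∀ x ∈ U, Commute x t → x ∈ U1 h t := fun x hx c => (mem_U1 h).2 ⟨hx, by
    rw [commutatorElement_eq_one_iff_mul_comm.2 c.symm.eq]; exact W.one_mem⟩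
  have WY : W ≤ U1 h t ⊓ centralizer (U1 h t : Set G) := fun w hw =>
    ⟨m0 w (h.le hw) (cW w hw), fun x hx => (h.cen w hw x hx.1).symm.eq⟩
  have k1 := big h (C := U1 h t ⊓ centralizer (U1 h t : Set G)) WY fun u hu => ⟨cm_U1 h t2 nU hu, fun a ha => by
    obtain ⟨aU, aW⟩ := (mem_U1 h).1 ha
    have z1 := ab u hu a aU
    have e1 : t * (u * a * u⁻¹ * a⁻¹) * t⁻¹ = u * a * u⁻¹ * a⁻¹ := by rw [← (cW _ z1).eq, mul_inv_cancel_right]
    have e2 := zc h _ ((mem_normalizer_iff.1 nU u).1 hu) _ aW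
    have e3 : t * u * t⁻¹ * a * (t * u * t⁻¹)⁻¹ * a⁻¹ = u * a * u⁻¹ * a⁻¹ := by
      have e4 := zc h _ (U.mul_mem (U.mul_mem ((mem_normalizer_iff.1 nU u).1 hu) aU)
        (U.inv_mem ((mem_normalizer_iff.1 nU u).1 hu))) _ aW
      have e5 := zc h _ aU _ aW
      rw [← e1]
      rw [commutatorElement_def] at e2 e4 e5
      calc _ = (t * a * t⁻¹ * a⁻¹)⁻¹ * (t * u * t⁻¹ * (t * a * t⁻¹ * a⁻¹) * (t * u * t⁻¹)⁻¹) *
            (t * u * t⁻¹ * a * (t * u * t⁻¹)⁻¹ * a⁻¹) := by rw [e2]; group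
        _ = (t * a * t⁻¹ * a⁻¹)⁻¹ * (t * (u * a * u⁻¹ * a⁻¹) * t⁻¹) * (t * a * t⁻¹ * a⁻¹) := by group
        _ = _ := by
          rw [e1, mul_assoc, ← (h.cen _ (by rwa [commutatorElement_def] at aW) _ (h.le z1)).eq]; group
    have e6 := zc h _ (U.inv_mem hu) _ z1
    have e7 := zc h _ ((mem_normalizer_iff.1 nU u).1 hu) _ z1
    rw [commutatorElement_def]
    generalize t * u * t⁻¹ = v at e3 e7
    calc a * (v * u⁻¹) = (v * a * v⁻¹ * a⁻¹)⁻¹ * v * a * u⁻¹ := by group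
      _ = (v * (u * a * u⁻¹ * a⁻¹) * v⁻¹)⁻¹ * v * a * u⁻¹ := by rw [e3, e7]
      _ = v * (u⁻¹ * (u * a * u⁻¹ * a⁻¹) * u⁻¹⁻¹)⁻¹ * a * u⁻¹ := by rw [e6]; group
      _ = v * u⁻¹ * a := by group⟩
  have k2 := fib (A := U1 h t ⊓ centralizer (U1 h t : Set G)) (C := W) fun a ha => ((mem_U1 h).1 ha.1).2
  have k3 := (U1_le h t2).trans (Nat.mul_le_mul_left _ (card_le_of_le inf_le_left))
  rw [h.cW] at k2 k3
  refine ⟨U1 h t ⊓ centralizer (U1 h t : Set G) ⊓ centralizer {t},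
    le_inf WY fun w hw => mem_centralizer_singleton_iff.2 (cW w hw), fun y hy => ⟨hy.1.1.1, hy.2⟩,
    fun y hy x hx => (hy.1.2 x (m0 x hx.1 (mem_centralizer_singleton_iff.1 hx.2))).symm, ?_⟩
  have k4 := k1.trans (Nat.mul_le_mul k3 k2)
  rw [mul_mul_mul_comm] at k4
  omega

theorem UW.cnt3 {U W : Subgroup G} (h : UW U W) {t : G} (ht : t ∈ U) :
    65536 ≤ Nat.card ↥(U ⊓ centralizer {t}) := by
  have k := fib (t := t) (A := U) (C := W) fun b hb => by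
    have e : ⁅t, b⁆ = (t * b) * (t * b) * (b⁻¹ * (t * t)⁻¹ * b⁻¹⁻¹) * (b * b)⁻¹ := by
      rw [commutatorElement_def]; group
    rw [e, zc h _ (U.inv_mem hb) _ (W.inv_mem (h.sq t ht))]
    exact W.mul_mem (W.mul_mem (h.sq _ (U.mul_mem ht hb)) (W.inv_mem (h.sq t ht))) (W.inv_mem (h.sq b hb))
  rw [h.cU, h.cW] at k
  omega

/-- the elements centralised by `t` modulo `W` -/
theorem UW.cnt4 {U W : Subgroup G} (h : UW U W) {t : G} (t2 : t * t = 1)
    (nU : t ∈ normalizer (U : Set G)) (nW : t ∈ normalizer (W : Set G)) {A : Subgroup G} (le : A ≤ U)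
    (hA : ∀ a ∈ A, ⁅t, a⁆ ∈ W)
    (c : Nat.card ↥(U ⊓ centralizer {t}) * Nat.card ↥(W ⊓ centralizer {t}) ≤ Nat.card A) {u : G}
    (hu : u ∈ U) : ⁅t, u⁆ ∈ A := by
  rw [eq_of_le_of_card_ge (show A ≤ U1 h t from fun a ha => (mem_U1 h).2 ⟨le ha, hA a ha⟩) ((U1_le h t2).trans c)]
  exact cm_U1 h t2 nU hu

end Cfsg.Agent.LG
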